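import Mathlib

/-! Numerical certificate for the averaging proof of Vaughan-Lee's theorem. -/

namespace Cfsg.Agent.Lib.PGroup.VaughanLee

/-- triangular numbers -/
def tr : ℕ → ℕ
  | 0 => 0
  | n + 1 => tr n + (n + 1)

lemma tr_succ (n : ℕ) : tr (n + 1) = tr n + (n + 1) := rfl

lemma tr_eq (n : ℕ) : tr n = n * (n + 1) / 2 := by
  induction n with
  | zero => rfl
  | succ n ih =>
    rw [tr_succ, ih]
    have h2 : 2 ∣ n * (n + 1) := by
      exact (Nat.even_mul_succ_self n).two_dvd
    obtain ⟨c, hc⟩ := h2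
    have : (n + 1) * (n + 1 + 1) = 2 * (c + (n + 1)) := by nlinarith
    rw [hc, this]
    simp

/-- position of a natural number `v` in the triangular array: `v = tr n + j`, `j ≤ n`. -/
def rp : ℕ → ℕ × ℕ
  | 0 => (0, 0)
  | v + 1 => if (rp v).2 < (rp v).1 then ((rp v).1, (rp v).2 + 1) else ((rp v).1 + 1, 0)

lemma rp_inv (v : ℕ) : v = tr (rp v).1 + (rp v).2 ∧ (rp v).2 ≤ (rp v).1 := by
  induction v with
  | zero => simp [rp, tr]
  | succ v ih =>
    obtain ⟨h1, h2⟩ := ih
    rw [rp]
    split_ifs with h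
    · simp only
      exact ⟨by omega, by omega⟩
    · simp only [tr_succ]
      have : (rp v).2 = (rp v).1 := by omega
      exact ⟨by omega, by omega⟩

lemma rp_fst_le_succ (v : ℕ) : (rp v).1 ≤ (rp (v + 1)).1 := by
  rw [rp]
  split_ifs <;> simp

lemma rp_fst_mono {a b : ℕ} (h : a ≤ b) : (rp a).1 ≤ (rp b).1 := by
  induction b, h using Nat.le_induction with
  | base => exact le_rfl
  | succ b _ ih => exact ih.trans (rp_fst_le_succ b)

lemma rp_tr_add (n j : ℕ) (hj : j ≤ n) : rp (tr n + j) = (n, j) := by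
  induction n generalizing j with
  | zero =>
    have : j = 0 := by omega
    subst this
    rfl
  | succ n ih =>
    induction j with
    | zero =>
      have h := ih n le_rfl
      have : tr (n + 1) + 0 = (tr n + n) + 1 := by simp [tr_succ]; omega
      rw [this, rp, h]
      simp
    | succ j ihj =>
      have h := ihj (by omega)
      have : tr (n + 1) + (j + 1) = (tr (n + 1) + j) + 1 := by omega
      rw [this, rp, h]
      have : j < n + 1 := by omega
      simp [this]

section
variable (x : ℚ)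

/-- slope of the certificate on the `n`-th segment -/
noncomputable def sl (n : ℕ) : ℚ := (1 - x ^ n) / n

/-- offset of the certificate -/
noncomputable def dl (n : ℕ) : ℚ := x ^ (n + 1) / (1 - x)

/-- the certificate -/
noncomputable def th (v : ℕ) : ℚ :=
  ((rp v).1 : ℚ) + dl x (rp v).1 + ((rp v).2 : ℚ) * sl x ((rp v).1 + 1)

variable {x}

lemma sl_mul (n : ℕ) : ((n : ℚ) + 1) * sl x (n + 1) = 1 - x ^ (n + 1) := by
  unfold sl
  push_cast
  field_simp

lemma th_tr_add (n j : ℕ) (hj : j ≤ n) :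
    th x (tr n + j) = (n : ℚ) + dl x n + (j : ℚ) * sl x (n + 1) := by
  unfold th
  rw [rp_tr_add n j hj]

lemma dl_succ (hx1 : x < 1) (n : ℕ) : dl x (n + 1) = dl x n - x ^ (n + 1) := by
  unfold dl
  have h : (1 - x) ≠ 0 := by
    have h' : 0 < 1 - x := by linarith
    exact ne_of_gt h'
  field_simp
  ring

lemma th_succ (hx1 : x < 1) (v : ℕ) : th x (v + 1) = th x v + sl x ((rp v).1 + 1) := by
  obtain ⟨h1, h2⟩ := rp_inv v
  by_cases h : (rp v).2 < (rp v).1
  · unfold th
    have : rp (v + 1) = ((rp v).1, (rp v).2 + 1) := by rw [rp]; simp [h]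
    rw [this]
    simp only
    push_cast
    ring
  · have hj : (rp v).2 = (rp v).1 := by omega
    have : rp (v + 1) = ((rp v).1 + 1, 0) := by rw [rp]; simp [h]
    unfold th
    rw [this, hj]
    simp only
    have h3 := sl_mul (x := x) (rp v).1
    have h4 := dl_succ hx1 (rp v).1
    push_cast
    rw [h4]
    linarith

/-- the key Bernoulli-type inequality -/
lemma bern (hx0 : 0 ≤ x) (hx1 : x ≤ 1) (n : ℕ) :
    ((n : ℚ) + 1) * x ^ n - n * x ^ (n + 1) ≤ 1 := by
  induction n with
  | zero => simp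
  | succ n ih =>
    push_cast
    have h : ((n : ℚ) + 1 + 1) * x ^ (n + 1) - (n + 1) * x ^ (n + 1 + 1)
        = ((n : ℚ) + 1) * x ^ n - n * x ^ (n + 1)
          - (n + 1) * x ^ n * (1 - x) ^ 2 := by ring
    rw [h]
    have : 0 ≤ ((n : ℚ) + 1) * x ^ n * (1 - x) ^ 2 := by positivity
    linarith

lemma sl_succ_le (hx0 : 0 ≤ x) (hx1 : x ≤ 1) (n : ℕ) (hn : 1 ≤ n) : sl x (n + 1) ≤ sl x n := by
  unfold sl
  have hn' : (0 : ℚ) < n := by exact_mod_cast hn
  have hn2 : (0 : ℚ) < (n : ℚ) + 1 := by linarith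
  push_cast
  rw [div_le_div_iff₀ hn2 hn']
  have := bern hx0 hx1 n
  nlinarith [this]

lemma sl_anti (hx0 : 0 ≤ x) (hx1 : x ≤ 1) {a b : ℕ} (ha : 1 ≤ a) (h : a ≤ b) : sl x b ≤ sl x a := by
  induction b, h using Nat.le_induction with
  | base => exact le_rfl
  | succ b hb ih => exact (sl_succ_le hx0 hx1 b (ha.trans hb)).trans ih

lemma pi_mono (hx0 : 0 ≤ x) (hx1 : x ≤ 1) {a b : ℕ} (h : a ≤ b) : 1 - x ^ a ≤ 1 - x ^ b := by
  have := pow_le_pow_of_le_one hx0 hx1 h
  linarith

lemma sl_le_pi (hx0 : 0 ≤ x) (hx1 : x ≤ 1) (n : ℕ) : sl x (n + 1) ≤ 1 - x ^ (n + 1) := by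
  have h := sl_mul (x := x) n
  have h0 : 0 ≤ sl x (n + 1) := by
    unfold sl
    have : x ^ (n + 1) ≤ 1 := pow_le_one₀ hx0 hx1
    apply div_nonneg <;> [linarith; positivity]
  have : (0 : ℚ) ≤ n := by positivity
  nlinarith

lemma sl_one_le (hx0 : 0 ≤ x) (hx1 : x ≤ 1) (n : ℕ) : sl x (n + 1) ≤ 1 := by
  have := sl_le_pi hx0 hx1 n
  have : 0 ≤ x ^ (n + 1) := by positivity
  linarith

lemma sl_nonneg (hx0 : 0 ≤ x) (hx1 : x ≤ 1) (n : ℕ) : 0 ≤ sl x n := by
  unfold sl
  have : x ^ n ≤ 1 := pow_le_one₀ hx0 hx1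
  apply div_nonneg <;> [linarith; positivity]

lemma dl_two_le (hx0 : 0 ≤ x) (hx2 : x ≤ 1 / 2) (n : ℕ) : 2 * dl x (n + 1) ≤ dl x n := by
  unfold dl
  have h1 : (0 : ℚ) < 1 - x := by linarith
  rw [← mul_div_assoc]
  apply div_le_div_of_nonneg_right _ h1.le
  have : 0 ≤ x ^ (n + 1) := by positivity
  have h : x ^ (n + 1 + 1) = x ^ (n + 1) * x := by ring
  rw [h]
  nlinarith

lemma th_le_half (hx0 : 0 ≤ x) (hx2 : x ≤ 1 / 2) (v : ℕ) : 2 * th x v ≤ v + 2 := by
  have hx1 : x < 1 := by linarith
  have hpos : (0 : ℚ) < 1 - x := by linarith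
  induction v with
  | zero =>
    have : th x 0 = x / (1 - x) := by
      have := th_tr_add (x := x) 0 0 le_rfl
      simp only [tr, add_zero] at this
      rw [this]
      simp [dl]
    rw [this]
    have : x / (1 - x) ≤ 1 := by
      rw [div_le_one hpos]; linarith
    push_cast
    linarith
  | succ v ih =>
    rw [th_succ hx1]
    rcases Nat.eq_zero_or_pos v with rfl | hv
    · have h0 : th x 0 = x / (1 - x) := by
        have := th_tr_add (x := x) 0 0 le_rfl
        simp only [tr, add_zero] at this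
        rw [this]
        simp [dl]
      have hr : (rp 0).1 = 0 := rfl
      rw [hr, h0]
      have hs : sl x (0 + 1) = 1 - x := by simp [sl]
      rw [hs]
      have h3 : x / (1 - x) ≤ 1 / 2 + x := by
        rw [div_le_iff₀ hpos]
        nlinarith
      push_cast
      linarith
    · have hr : 1 ≤ (rp v).1 := by
        have := rp_fst_mono (a := 1) (b := v) hv
        have h1 : (rp 1).1 = 1 := by decide
        omega
      have hs : sl x ((rp v).1 + 1) ≤ sl x 2 := sl_anti hx0 hx1.le (by norm_num) (by omega)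
      have hs2 : sl x 2 ≤ 1 / 2 := by
        unfold sl
        have : 0 ≤ x ^ 2 := by positivity
        push_cast
        linarith
      push_cast at ih ⊢
      linarith

/-- slopes are at most `sl n` beyond `tr (n-1)` -/
lemma th_sub_le (hx0 : 0 ≤ x) (hx1 : x < 1) (n : ℕ) (hn : 1 ≤ n) (t w : ℕ)
    (hw : tr (n - 1) ≤ w) :
    th x (w + t) ≤ th x w + t * sl x n := by
  induction t with
  | zero => simp
  | succ t ih =>
    rw [← add_assoc, th_succ hx1]
    have h1 : n - 1 ≤ (rp (w + t)).1 := by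
      have := rp_fst_mono (a := tr (n - 1)) (b := w + t) (by omega)
      rw [show tr (n - 1) = tr (n - 1) + 0 by simp, rp_tr_add _ 0 (by omega)] at this
      simpa using this
    have h2 : sl x ((rp (w + t)).1 + 1) ≤ sl x n := sl_anti hx0 hx1.le hn (by omega)
    push_cast
    linarith

/-- one step of the potential -/
lemma th_step_core (hx0 : 0 ≤ x) (hx2 : x ≤ 1 / 2) (n j t : ℕ) (hj : j ≤ n)
    (ht : t ≤ tr n + j) :
    th x (tr n + j) ≤ th x (tr n + j - t) + (1 - x ^ t) ∨
      2 * th x (tr n + j) ≤ th x (tr n + j - t) + t + (1 - x ^ t) := by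
  have hx1 : x < 1 := by linarith
  rcases Nat.eq_zero_or_pos t with rfl | htpos
  · left; simp
  by_cases htn : t ≤ n
  · -- first alternative
    left
    have hn1 : 1 ≤ n := by omega
    have hw : tr (n - 1) ≤ tr n + j - t := by
      obtain ⟨m, rfl⟩ : ∃ m, n = m + 1 := ⟨n - 1, by omega⟩
      simp only [tr_succ, Nat.add_sub_cancel]
      omega
    have h1 := th_sub_le hx0 hx1 n hn1 t (tr n + j - t) hw
    rw [show tr n + j - t + t = tr n + j by omega] at h1
    have h2 : sl x n ≤ sl x t := sl_anti hx0 hx1.le htpos htn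
    have h3 : (t : ℚ) * sl x t = 1 - x ^ t := by
      obtain ⟨m, rfl⟩ : ∃ m, t = m + 1 := ⟨t - 1, by omega⟩
      have := sl_mul (x := x) m
      push_cast
      linarith
    have h4 : (t : ℚ) * sl x n ≤ t * sl x t :=
      mul_le_mul_of_nonneg_left h2 (by positivity)
    linarith
  · -- second alternative
    right
    have htn' : n + 1 ≤ t := by omega
    -- monotonicity in t
    have hmono : ∀ u, n + 1 ≤ u → u ≤ tr n + j →
        th x (tr n + j - (n + 1)) + ((n + 1 : ℕ) : ℚ) + (1 - x ^ (n + 1))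
          ≤ th x (tr n + j - u) + (u : ℚ) + (1 - x ^ u) := by
      intro u hu
      induction u, hu using Nat.le_induction with
      | base => intro _; exact le_rfl
      | succ u hu ih =>
        intro huv
        have h1 := ih (by omega)
        have h2 : th x (tr n + j - u) = th x (tr n + j - (u + 1))
            + sl x ((rp (tr n + j - (u + 1))).1 + 1) := by
          rw [← th_succ hx1]
          congr 1
          omega
        have h3 := sl_one_le hx0 hx1.le (rp (tr n + j - (u + 1))).1
        have h4 := pi_mono hx0 hx1.le (Nat.le_succ u)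
        have h5 : ((u + 1 : ℕ) : ℚ) = (u : ℚ) + 1 := by push_cast; ring
        rw [h5]
        rw [h2] at h1
        simp only [Nat.succ_eq_add_one] at h4
        linarith
    have hb := hmono t htn' ht
    refine le_trans ?_ hb
    -- base case `t = n + 1`
    by_cases hj0 : j = 0
    · -- `v = tr n`
      subst hj0
      have hvn : n + 1 ≤ tr n := by omega
      have hn2 : 2 ≤ n := by
        by_contra hcon
        have : n = 0 ∨ n = 1 := by omega
        rcases this with h | h
        · rw [h] at hvn; simp [tr] at hvn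
        · rw [h] at hvn; simp [tr] at hvn
      obtain ⟨m, rfl⟩ : ∃ m, n = m + 2 := ⟨n - 2, by omega⟩
      have hv2 : tr (m + 2) + 0 - (m + 2 + 1) = tr m + m := by
        simp only [tr_succ]; omega
      have e1 : th x (tr (m + 2) + 0) = ((m + 2 : ℕ) : ℚ) + dl x (m + 2) := by
        have := th_tr_add (x := x) (m + 2) 0 (by omega)
        rw [this]; simp
      have e2 : th x (tr m + m) = (m : ℚ) + dl x m + m * sl x (m + 1) := by
        rw [th_tr_add _ _ le_rfl]
      rw [hv2, e1, e2]
      have h1 := sl_mul (x := x) m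
      have h2 := dl_succ hx1 m
      have h3 := dl_two_le hx0 hx2 (m + 1)
      have h4 : sl x (m + 1) ≤ 1 - x ^ (m + 1) := sl_le_pi hx0 hx1.le m
      have h5 : 1 - x ^ (m + 1) ≤ 1 - x ^ (m + 2 + 1) := pi_mono hx0 hx1.le (by omega)
      push_cast
      linarith
    · -- `1 ≤ j`
      have hj1 : 1 ≤ j := by omega
      obtain ⟨m, rfl⟩ : ∃ m, n = m + 1 := ⟨n - 1, by omega⟩
      have hv2 : tr (m + 1) + j - (m + 1 + 1) = tr m + (j - 1) := by
        simp only [tr_succ]; omega
      have e1 : th x (tr (m + 1) + j) = ((m + 1 : ℕ) : ℚ) + dl x (m + 1)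
          + (j : ℚ) * sl x (m + 1 + 1) := by
        rw [th_tr_add _ _ hj]
      have e2 : th x (tr m + (j - 1)) = (m : ℚ) + dl x m + ((j - 1 : ℕ) : ℚ) * sl x (m + 1) := by
        rw [th_tr_add _ _ (by omega)]
      rw [hv2, e1, e2]
      have hjc : ((j - 1 : ℕ) : ℚ) = (j : ℚ) - 1 := by
        rw [Nat.cast_sub hj1]; simp
      rw [hjc]
      have h1 := sl_mul (x := x) (m + 1)
      have h3 := dl_two_le hx0 hx2 m
      have h4 : sl x (m + 1 + 1) ≤ sl x (m + 1) := sl_succ_le hx0 hx1.le _ (by omega)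
      have hjn : (j : ℚ) ≤ (m : ℚ) + 1 := by
        have : j ≤ m + 1 := by omega
        exact_mod_cast this
      have hj1' : (1 : ℚ) ≤ j := by exact_mod_cast hj1
      have h6 : ((j : ℚ) - 1) * sl x (m + 1 + 1) ≤ ((j : ℚ) - 1) * sl x (m + 1) :=
        mul_le_mul_of_nonneg_left h4 (by linarith)
      have h7 := sl_nonneg hx0 hx1.le (m + 1 + 1)
      have h8 : (j : ℚ) * sl x (m + 1 + 1) ≤ ((m : ℚ) + 1) * sl x (m + 1 + 1) :=
        mul_le_mul_of_nonneg_right hjn h7
      have h9 : 2 * dl x (m + 1) ≤ dl x m := h3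
      have h10 := sl_mul (x := x) (m + 1)
      push_cast at h1 h10 ⊢
      nlinarith

lemma th_step (hx0 : 0 ≤ x) (hx2 : x ≤ 1 / 2) (v t : ℕ) (ht : t ≤ v) :
    th x v ≤ th x (v - t) + (1 - x ^ t) ∨ 2 * th x v ≤ th x (v - t) + t + (1 - x ^ t) := by
  obtain ⟨hv, hj⟩ := rp_inv v
  rw [hv] at ht ⊢
  exact th_step_core hx0 hx2 _ _ t hj ht

end

/-- The linear programme behind the averaging argument. -/
theorem lp_bound {x : ℚ} (hx0' : 0 < x) (hx2 : x ≤ 1 / 2) (m : ℕ) (t : ℕ → ℕ) (R : ℕ → ℚ)
    (h1 : ∀ i < m, R (i + 1) + (1 - x ^ t i) ≤ R i)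
    (h2 : ∀ i < m, (t i : ℚ) + R (i + 1) + (1 - x ^ t i) ≤ 2 * R i)
    (hm1 : R (m + 1) + 1 ≤ R m) (hm2 : (t m : ℚ) + R (m + 1) + 1 ≤ 2 * R m)
    (hm0 : 0 ≤ R (m + 1)) (b : ℕ) (hb : R 0 ≤ b) :
    ∑ i ∈ Finset.range (m + 1), t i ≤ tr b := by
  have hx0 : 0 ≤ x := hx0'.le
  have hx1 : x < 1 := by linarith
  have hpi : ∀ k, 0 ≤ 1 - x ^ k := fun k => by
    have := pow_le_one₀ (n := k) hx0 hx1.le
    linarith
  -- `R i ≥ 1` for `i ≤ m`
  have hR1 : ∀ k, k ≤ m → 1 ≤ R (m - k) := by
    intro k
    induction k with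
    | zero => intro _; simpa using (by linarith : (1 : ℚ) ≤ R m)
    | succ k ih =>
      intro hk
      have h3 := ih (by omega)
      have h4 := h1 (m - (k + 1)) (by omega)
      rw [show m - (k + 1) + 1 = m - k by omega] at h4
      have := hpi (t (m - (k + 1)))
      linarith
  -- the main induction: for `k ≤ m`, with `i = m - k`
  have main : ∀ k, k ≤ m → ∀ v : ℕ, R (m - k) < th x v →
      ∑ i ∈ Finset.Ico (m - k) (m + 1), t i ≤ v := by
    intro k
    induction k with
    | zero =>
      intro _ v hv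
      simp only [Nat.sub_zero] at hv ⊢
      rw [show Finset.Ico m (m + 1) = {m} by
        ext a; simp only [Finset.mem_Ico, Finset.mem_singleton]; omega]
      simp only [Finset.sum_singleton]
      have h3 := th_le_half hx0 hx2 v
      have : (t m : ℚ) < (v : ℚ) + 1 := by linarith
      exact_mod_cast Nat.lt_succ_iff.mp (by exact_mod_cast this)
    | succ k ih =>
      intro hk v hv
      set i := m - (k + 1) with hi
      have hi1 : m - k = i + 1 := by omega
      have him : i < m := by omega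
      rw [show Finset.Ico i (m + 1) = insert i (Finset.Ico (i + 1) (m + 1)) by
        ext a; simp; omega]
      rw [Finset.sum_insert (by simp)]
      have hR := hR1 k (by omega)
      rw [hi1] at hR
      have h3 := h2 i him
      have h4 := h1 i him
      have h5 := th_le_half hx0 hx2 v
      have hpos := hpi (t i)
      have htv : t i ≤ v := by
        by_contra hcon
        have : (v : ℚ) + 1 ≤ t i := by
          have : v + 1 ≤ t i := by omega
          exact_mod_cast this
        linarith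
      have hnext : R (i + 1) < th x (v - t i) := by
        rcases th_step hx0 hx2 v (t i) htv with h | h <;> linarith
      have := ih (by omega) (v - t i) (by rwa [hi1])
      rw [hi1] at this
      omega
  have hfin := main m le_rfl (tr b) (by
    simp only [Nat.sub_self]
    have h3 : th x (tr b) = (b : ℚ) + dl x b + 0 * sl x (b + 1) := by
      have := th_tr_add (x := x) b 0 (by omega)
      simpa using this
    have h4 : 0 < dl x b := by
      unfold dl
      have : 0 < 1 - x := by linarith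
      positivity
    rw [h3]
    linarith)
  rw [Nat.sub_self] at hfin
  rw [Finset.range_eq_Ico]
  exact hfin

end Cfsg.Agent.Lib.PGroup.VaughanLee
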