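import Mathlib
import Cfsg.Agent.Lib.PGroup.Basic
import Cfsg.Agent.Lib.PGroup.VaughanLee.Numeric

/-! Relative centralisers and the local inequalities for the averaging proof of
Vaughan-Lee's theorem. -/

set_option linter.style.haveILetI false
set_option linter.unusedSectionVars false
set_option linter.unusedVariables false

namespace Cfsg.Agent.Lib.PGroup.VaughanLee

open scoped commutatorElement

variable {G : Type*} [Group G]

lemma comm_mul_right' (u g h : G) : ⁅u, g * h⁆ = ⁅u, g⁆ * (g * ⁅u, h⁆ * g⁻¹) := by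
  simp only [commutatorElement_def]; group

lemma comm_inv_right' (u g : G) : ⁅u, g⁻¹⁆ = g⁻¹ * ⁅u, g⁆⁻¹ * g := by
  simp only [commutatorElement_def]; group

lemma comm_mul_left' (s y g : G) : ⁅s * y, g⁆ = s * ⁅y, g⁆ * s⁻¹ * ⁅s, g⁆ := by
  simp only [commutatorElement_def]; group

/-- The relative centraliser: all `g` with `⁅u, g⁆ ∈ N`. -/
def cz (N : Subgroup G) [hN : N.Normal] (u : G) : Subgroup G where
  carrier := {g | ⁅u, g⁆ ∈ N}
  one_mem' := by simp [N.one_mem]
  mul_mem' := by
    intro a b ha hb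
    simp only [Set.mem_ofPred_eq] at *
    rw [comm_mul_right']
    exact N.mul_mem ha (hN.conj_mem _ hb _)
  inv_mem' := by
    intro a ha
    simp only [Set.mem_ofPred_eq] at *
    rw [comm_inv_right']
    have := hN.conj_mem _ (N.inv_mem ha) a⁻¹
    simpa using this

lemma mem_cz {N : Subgroup G} [N.Normal] {u g : G} : g ∈ cz N u ↔ ⁅u, g⁆ ∈ N := Iff.rfl

lemma mem_cz_symm {N : Subgroup G} [N.Normal] {u g : G} : g ∈ cz N u ↔ u ∈ cz N g := by
  simp only [mem_cz]
  rw [← commutatorElement_inv]
  exact N.inv_mem_iff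

section Level

variable [Finite G] {p : ℕ} [hp : Fact p.Prime]

/-- The `p`-logarithm of the index. -/
noncomputable def lx (p : ℕ) (K : Subgroup G) : ℕ := Nat.log p K.index

lemma index_eq_pow_lx (hG : IsPGroup p G) (K : Subgroup G) : K.index = p ^ lx p K := by
  obtain ⟨n, hn⟩ := hG.index K
  rw [lx, hn, Nat.log_pow hp.out.one_lt]

lemma le_relIndex_of_not_le (hG : IsPGroup p G) {L K : Subgroup G} {y : G} (hyK : y ∈ K)
    (hyL : y ∉ L) : p ≤ L.relIndex K := by
  obtain ⟨n, hn⟩ := IsPGroup.index (hG.to_subgroup K) (L.subgroupOf K)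
  rw [Subgroup.relIndex, hn]
  rcases Nat.eq_zero_or_pos n with rfl | hpos
  · exfalso
    have h1 : L.relIndex K = 1 := by
      rw [Subgroup.relIndex, hn, pow_zero]
    rw [Subgroup.relIndex_eq_one] at h1
    exact hyL (h1 hyK)
  · calc p = p ^ 1 := (pow_one p).symm
      _ ≤ p ^ n := Nat.pow_le_pow_right hp.out.pos hpos

lemma relIndex_pos' (L K : Subgroup G) : 0 < L.relIndex K := by
  rw [Subgroup.relIndex]
  exact Nat.pos_of_ne_zero Subgroup.FiniteIndex.index_ne_zero

/-- indicator of `s ∉ cz N y` -/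
noncomputable def ep (N : Subgroup G) [N.Normal] (y s : G) : ℕ :=
  open Classical in if s ∈ cz N y then 0 else 1

lemma ep_zero {N : Subgroup G} [N.Normal] {y s : G} (h : s ∈ cz N y) : ep N y s = 0 := by
  unfold ep; rw [if_pos h]

lemma ep_one {N : Subgroup G} [N.Normal] {y s : G} (h : s ∉ cz N y) : ep N y s = 1 := by
  unfold ep; rw [if_neg h]

/-- The main inequality at one level. -/
lemma level_main (hG : IsPGroup p G) {N M : Subgroup G} [N.Normal] [M.Normal] (hNM : N ≤ M)
    (y s : G) (hy : ∀ g, ⁅y, g⁆ ∈ M) :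
    (cz N y).index * p ^ ep N y s * (cz M s).index
      ≤ (cz N (s * y)).index * (cz N s).index := by
  set D := cz M s with hD
  set Cs := cz N s with hCs
  set C' := cz N (s * y) with hC'
  set Cy := cz N y with hCy
  have hCsD : Cs ≤ D := fun g hg => hNM hg
  have hC'D : C' ≤ D := by
    intro g hg
    have h1 : ⁅s * y, g⁆ ∈ M := hNM hg
    rw [comm_mul_left'] at h1
    have h2 : s * ⁅y, g⁆ * s⁻¹ ∈ M := (inferInstance : M.Normal).conj_mem _ (hy g) s
    exact (M.mul_mem_cancel_left h2).mp h1
  have hinf : Cs ⊓ Cy = Cs ⊓ C' := by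
    ext g
    simp only [Subgroup.mem_inf]
    constructor
    · rintro ⟨h1, h2⟩
      refine ⟨h1, ?_⟩
      show ⁅s * y, g⁆ ∈ N
      rw [comm_mul_left']
      exact N.mul_mem ((inferInstance : N.Normal).conj_mem _ h2 s) h1
    · rintro ⟨h1, h2⟩
      refine ⟨h1, ?_⟩
      have h3 : ⁅s * y, g⁆ ∈ N := h2
      rw [comm_mul_left'] at h3
      have h4 := (N.mul_mem_cancel_right h1).mp h3
      have h5 := (inferInstance : N.Normal).conj_mem _ h4 s⁻¹
      have h6 : ⁅y, g⁆ ∈ N := by simpa [mul_assoc] using h5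
      exact h6
  set K := D ⊓ Cy with hK
  set L := Cs ⊓ Cy with hL
  have hLK : L ≤ K := inf_le_inf_right _ hCsD
  have hKD : K ≤ D := inf_le_left
  have hLCs : L ≤ Cs := inf_le_left
  have e1 : K.relIndex D * D.index = K.index := Subgroup.relIndex_mul_index hKD
  have e2 : L.relIndex K * K.relIndex D = L.relIndex D :=
    Subgroup.relIndex_mul_relIndex _ _ _ hLK hKD
  have e3 : L.relIndex Cs * Cs.relIndex D = L.relIndex D :=
    Subgroup.relIndex_mul_relIndex _ _ _ hLCs hCsD
  have e4 : Cs.relIndex D * D.index = Cs.index := Subgroup.relIndex_mul_index hCsD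
  have e5 : C'.relIndex D * D.index = C'.index := Subgroup.relIndex_mul_index hC'D
  have e6 : L.relIndex Cs = C'.relIndex Cs := by
    rw [hinf, Subgroup.inf_relIndex_left]
  have e7 : C'.relIndex Cs ≤ C'.relIndex D :=
    Subgroup.relIndex_le_of_le_right hCsD (relIndex_pos' _ _).ne'
  have e8 : Cy.index ≤ K.index := Subgroup.index_antitone inf_le_right
  have hyK : y ∈ K := by
    refine ⟨?_, ?_⟩
    · show ⁅s, y⁆ ∈ M
      rw [← commutatorElement_inv]
      exact M.inv_mem (hy s)
    · show ⁅y, y⁆ ∈ N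
      simp [N.one_mem]
  have e9 : p ^ ep N y s ≤ L.relIndex K := by
    by_cases hs : s ∈ Cy
    · rw [ep_zero hs, pow_zero]
      exact relIndex_pos' _ _
    · rw [ep_one hs, pow_one]
      refine le_relIndex_of_not_le hG hyK ?_
      intro hyL
      exact hs (mem_cz_symm.mp hyL.1)
  calc Cy.index * p ^ ep N y s * D.index
      ≤ K.index * L.relIndex K * D.index := by gcongr
    _ = (L.relIndex K * K.relIndex D) * D.index * D.index := by rw [← e1]; ring
    _ = (L.relIndex Cs * Cs.relIndex D) * D.index * D.index := by rw [e2, e3]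
    _ = C'.relIndex Cs * (Cs.relIndex D * D.index) * D.index := by rw [e6]; ring
    _ ≤ C'.relIndex D * (Cs.relIndex D * D.index) * D.index := by gcongr
    _ = (C'.relIndex D * D.index) * (Cs.relIndex D * D.index) := by ring
    _ = C'.index * Cs.index := by rw [e5, e4]

/-- The easy inequality at one level. -/
lemma level_easy (hG : IsPGroup p G) {N M : Subgroup G} [N.Normal] [M.Normal] (hNM : N ≤ M)
    (y s : G) (hy : ∀ g, ⁅y, g⁆ ∈ M) :
    p ^ ep N y s * (cz M s).index ≤ (cz N s).index := by
  have hCsD : cz N s ≤ cz M s := fun g hg => hNM hg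
  rw [← Subgroup.relIndex_mul_index hCsD]
  apply Nat.mul_le_mul_right
  by_cases hs : s ∈ cz N y
  · rw [ep_zero hs, pow_zero]
    exact relIndex_pos' _ _
  · rw [ep_one hs, pow_one]
    refine le_relIndex_of_not_le hG (y := y) ?_ ?_
    · show ⁅s, y⁆ ∈ M
      rw [← commutatorElement_inv]
      exact M.inv_mem (hy s)
    · intro hyL
      exact hs (mem_cz_symm.mp hyL)

lemma level_main_log (hG : IsPGroup p G) {N M : Subgroup G} [N.Normal] [M.Normal] (hNM : N ≤ M)
    (y s : G) (hy : ∀ g, ⁅y, g⁆ ∈ M) :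
    lx p (cz N y) + ep N y s + lx p (cz M s) ≤ lx p (cz N (s * y)) + lx p (cz N s) := by
  have h := level_main (p := p) hG hNM y s hy
  rw [index_eq_pow_lx hG (cz N y), index_eq_pow_lx hG (cz M s),
    index_eq_pow_lx hG (cz N (s * y)), index_eq_pow_lx hG (cz N s)] at h
  rw [← pow_add, ← pow_add, ← pow_add] at h
  exact (Nat.pow_le_pow_iff_right hp.out.one_lt).mp h

lemma level_easy_log (hG : IsPGroup p G) {N M : Subgroup G} [N.Normal] [M.Normal] (hNM : N ≤ M)
    (y s : G) (hy : ∀ g, ⁅y, g⁆ ∈ M) :
    ep N y s + lx p (cz M s) ≤ lx p (cz N s) := by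
  have h := level_easy (p := p) hG hNM y s hy
  rw [index_eq_pow_lx hG (cz M s), index_eq_pow_lx hG (cz N s)] at h
  rw [← pow_add] at h
  exact (Nat.pow_le_pow_iff_right hp.out.one_lt).mp h

end Level

section Density

open Finset

variable [Fintype G] {p : ℕ} [hp : Fact p.Prime]

open Classical in
/-- The density of a subgroup in the complement of a subgroup of index `p`. -/
lemma density {H C : Subgroup G} (hH : H.index = p) :
    (univ.filter (fun s => s ∉ H ∧ s ∈ C)).card * C.index ≤ (univ.filter (fun s => s ∉ H)).card := by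
  set E := (univ.filter (fun s => s ∉ H ∧ s ∈ C)).card with hE
  set T := (univ.filter (fun s => s ∉ H)).card with hT
  set E' := (univ.filter (fun s => s ∈ H ∧ s ∈ C)).card with hE'
  set h := (univ.filter (fun s => s ∈ H)).card with hh
  set c := (univ.filter (fun s => s ∈ C)).card with hc
  set g := Fintype.card G with hg
  have h1 : T + h = g := by
    rw [add_comm, hT, hh, Finset.card_filter_add_card_filter_not]
    simp [hg]
  have h2 : h = Nat.card H := by
    rw [Nat.card_eq_fintype_card, Fintype.card_subtype]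
  have h3 : c = Nat.card C := by
    rw [Nat.card_eq_fintype_card, Fintype.card_subtype]
  have h4 : E' = Nat.card (H ⊓ C : Subgroup G) := by
    rw [Nat.card_eq_fintype_card, Fintype.card_subtype]
    simp [Subgroup.mem_inf, hE']
  have h5 : E + E' = c := by
    rw [hc, ← Finset.card_filter_add_card_filter_not (s := univ.filter (fun s => s ∈ C))
      (fun s => s ∉ H)]
    rw [Finset.filter_filter, Finset.filter_filter, hE, hE']
    congr 2
    · ext s; simp [and_comm]
    · ext s; simp [and_comm]
  have h6 : h * p = g := by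
    rw [h2, ← hH, Subgroup.card_mul_index, hg, Nat.card_eq_fintype_card]
  have h7 : c * C.index = g := by
    rw [h3, Subgroup.card_mul_index, hg, Nat.card_eq_fintype_card]
  have h8 : c ≤ E' * p := by
    have h9 := Subgroup.relIndex_mul_relIndex ⊥ (H ⊓ C) C bot_le inf_le_right
    rw [Subgroup.relIndex_bot_left, Subgroup.relIndex_bot_left, Subgroup.inf_relIndex_right] at h9
    have h10 : H.relIndex C ≤ H.relIndex ⊤ :=
      Subgroup.relIndex_le_of_le_right le_top (by
        rw [Subgroup.relIndex_top_right, hH]; exact hp.out.ne_zero)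
    rw [Subgroup.relIndex_top_right, hH] at h10
    rw [h3, h4, ← h9]
    exact Nat.mul_le_mul_left _ h10
  have hppos : 0 < p := hp.out.pos
  have key : E * C.index * p ≤ T * p := by
    have a1 : (E + E') * C.index * p = c * C.index * p := by rw [h5]
    rw [h7] at a1
    have a2 : (T + h) * p = g * p := by rw [h1]
    have a3 : c * C.index ≤ E' * p * C.index := Nat.mul_le_mul_right _ h8
    rw [h7] at a3
    nlinarith
  exact Nat.le_of_mul_le_mul_right key hppos

end Density

end Cfsg.Agent.Lib.PGroup.VaughanLee
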