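import Mathlib
import Cfsg.Agent.Lib.PGroup.Basic
import Cfsg.Agent.Lib.PGroup.VaughanLee.Numeric
import Cfsg.Agent.Lib.PGroup.VaughanLee.Level

/-! The averaging proof of Vaughan-Lee's theorem. -/

set_option linter.style.haveILetI false
set_option linter.unusedSectionVars false
set_option linter.unusedVariables false

namespace Cfsg.Agent.Lib.PGroup.VaughanLee

open scoped commutatorElement
open Finset

variable {G : Type*} [Group G]

section Averaging

variable [Fintype G] {p : ℕ} [hp : Fact p.Prime]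

open Classical in
/-- the average of `ep` over the complement of an index `p` subgroup -/
lemma ep_sum_ge {H : Subgroup G} (hH : H.index = p) (N : Subgroup G) [N.Normal] (y : G)
    (hG : IsPGroup p G) (hpos : 0 < (univ.filter (fun s => s ∉ H)).card) :
    1 - ((1 : ℚ) / p) ^ lx p (cz N y)
      ≤ (∑ s ∈ univ.filter (fun s => s ∉ H), (ep N y s : ℚ))
          / ((univ.filter (fun s => s ∉ H)).card : ℚ) := by
  set T := univ.filter (fun s => s ∉ H) with hT
  set C := cz N y with hC
  have h1 : ∑ s ∈ T, (ep N y s : ℚ) = (T.filter (fun s => s ∉ C)).card := by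
    rw [Finset.card_filter]
    push_cast
    refine Finset.sum_congr rfl fun s _ => ?_
    by_cases hs : s ∈ C
    · rw [ep_zero hs]; simp [hs]
    · rw [ep_one hs]; simp [hs]
  have h2 : (T.filter (fun s => s ∉ C)).card + (T.filter (fun s => s ∈ C)).card = T.card := by
    rw [add_comm]
    exact Finset.card_filter_add_card_filter_not _
  have h3 : (T.filter (fun s => s ∈ C)).card = (univ.filter (fun s => s ∉ H ∧ s ∈ C)).card := by
    rw [hT, Finset.filter_filter]
  have h4 := density (p := p) (C := C) hH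
  rw [← h3, ← hT] at h4
  rw [index_eq_pow_lx hG C] at h4
  have hTq : (0 : ℚ) < T.card := by exact_mod_cast hpos
  have hpq : (0 : ℚ) < (p : ℚ) ^ lx p C := by
    have : (0 : ℚ) < p := by exact_mod_cast hp.out.pos
    positivity
  rw [h1, le_div_iff₀ hTq, one_div, inv_pow]
  have h5 : ((T.filter (fun s => s ∉ C)).card : ℚ) = T.card - (T.filter (fun s => s ∈ C)).card := by
    rw [← h2]; push_cast; ring
  rw [h5, sub_mul, one_mul]
  have h6 : ((T.filter (fun s => s ∈ C)).card : ℚ) * (p : ℚ) ^ lx p C ≤ T.card := by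
    exact_mod_cast h4
  have h7 : ((T.filter (fun s => s ∈ C)).card : ℚ) ≤ ((p : ℚ) ^ lx p C)⁻¹ * T.card := by
    rw [inv_mul_eq_div, le_div_iff₀ hpq]
    exact h6
  linarith

end Averaging

/-- The main bound for abstract data. -/
theorem main_bound [Finite G] {p : ℕ} [hp : Fact p.Prime] (hG : IsPGroup p G) (b : ℕ)
    (hb : ∀ x : G, (Subgroup.centralizer ({x} : Set G)).index ≤ p ^ b)
    (N : ℕ → Subgroup G) [hNn : ∀ i, (N i).Normal] (y : ℕ → G)
    (hN0 : N 0 = ⊥) (hmono : ∀ i, N i ≤ N (i + 1))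
    (hy : ∀ i g, ⁅y i, g⁆ ∈ N (i + 1))
    (hcard : ∀ i, Nat.card (N (i + 1)) ≤ Nat.card (N i) * (cz (N i) (y i)).index)
    (m : ℕ) (hm : cz (N m) (y m) ≠ ⊤) :
    Nat.card (N (m + 1)) ≤ p ^ tr b := by
  classical
  haveI := Fintype.ofFinite G
  obtain ⟨H, hCH, -, hHidx⟩ := Cfsg.Agent.Lib.PGroup.Basic.exists_normal_index_ge hG hm
  have hp1 : 1 < p := hp.out.one_lt
  have hmono' : Monotone N := monotone_nat_of_le_succ hmono
  -- the `y j` lie in `H`
  have hyH : ∀ j, j ≤ m → y j ∈ H := by
    intro j hj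
    apply hCH
    rcases hj.lt_or_eq with hlt | rfl
    · rw [mem_cz_symm]
      exact hmono' (by omega : j + 1 ≤ m) (hy j (y m))
    · show ⁅y j, y j⁆ ∈ N j
      simp [(N j).one_mem]
  set T := univ.filter (fun s : G => s ∉ H) with hT
  have hTpos : 0 < T.card := by
    rw [Finset.card_pos]
    by_contra hcon
    have htop : H = ⊤ := by
      rw [eq_top_iff]
      intro g _
      by_contra hg
      exact hcon ⟨g, by simp [hT, hg]⟩
    rw [htop, Subgroup.index_top] at hHidx
    omega
  have hn : (0 : ℚ) < T.card := by exact_mod_cast hTpos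
  set n : ℚ := (T.card : ℚ) with hndef
  set S : ℕ → ℚ := fun i => ∑ s ∈ T, (lx p (cz (N i) s) : ℚ) with hS
  set Ep : ℕ → ℚ := fun i => ∑ s ∈ T, (ep (N i) (y i) s : ℚ) with hEp
  set t : ℕ → ℕ := fun i => lx p (cz (N i) (y i)) with ht
  set R : ℕ → ℚ := fun i => S i / n with hR
  set A : ℕ → ℚ := fun i => Ep i / n with hA
  -- shift
  have hshift : ∀ i j, j ≤ m → ∑ s ∈ T, (lx p (cz (N i) (s * y j)) : ℚ) = S i := by
    intro i j hj
    refine Finset.sum_equiv (Equiv.mulRight (y j)) ?_ (fun s _ => rfl)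
    intro s
    simp only [hT, Finset.mem_filter, Finset.mem_univ, true_and, Equiv.coe_mulRight]
    rw [H.mul_mem_cancel_right (hyH j hj)]
  -- level inequalities
  have hlev1 : ∀ i, S (i + 1) + Ep i ≤ S i := by
    intro i
    simp only [hS, hEp]
    rw [← Finset.sum_add_distrib]
    refine Finset.sum_le_sum fun s _ => ?_
    have := level_easy_log (p := p) hG (hmono i) (y i) s (hy i)
    have h2 : ((lx p (cz (N (i + 1)) s) + ep (N i) (y i) s : ℕ) : ℚ) ≤ (lx p (cz (N i) s) : ℕ) := by
      exact_mod_cast (by omega)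
    push_cast at h2
    exact h2
  have hlev2 : ∀ i, i ≤ m → n * (t i : ℚ) + S (i + 1) + Ep i ≤ 2 * S i := by
    intro i hi
    have h0 : ∑ s ∈ T, ((t i : ℚ) + (lx p (cz (N (i + 1)) s) : ℚ) + (ep (N i) (y i) s : ℚ))
        ≤ ∑ s ∈ T, ((lx p (cz (N i) (s * y i)) : ℚ) + (lx p (cz (N i) s) : ℚ)) := by
      refine Finset.sum_le_sum fun s _ => ?_
      have := level_main_log (p := p) hG (hmono i) (y i) s (hy i)
      have h2 : ((lx p (cz (N i) (y i)) + ep (N i) (y i) s + lx p (cz (N (i + 1)) s) : ℕ) : ℚ)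
          ≤ (lx p (cz (N i) (s * y i)) + lx p (cz (N i) s) : ℕ) := by
        exact_mod_cast this
      push_cast at h2
      simp only [ht]
      linarith
    rw [Finset.sum_add_distrib, Finset.sum_add_distrib, Finset.sum_add_distrib,
      hshift i i hi, Finset.sum_const, nsmul_eq_mul] at h0
    simp only [hS, hEp] at h0 ⊢
    linarith
  -- division
  have hdiv1 : ∀ i, R (i + 1) + A i ≤ R i := by
    intro i
    simp only [hR, hA]
    rw [← add_div]
    exact div_le_div_of_nonneg_right (hlev1 i) hn.le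
  have hdiv2 : ∀ i, i ≤ m → (t i : ℚ) + R (i + 1) + A i ≤ 2 * R i := by
    intro i hi
    have h1 := hlev2 i hi
    simp only [hR, hA]
    have e : (t i : ℚ) + S (i + 1) / n + Ep i / n = (n * (t i : ℚ) + S (i + 1) + Ep i) / n := by
      field_simp
    rw [e, ← mul_div_assoc]
    exact div_le_div_of_nonneg_right h1 hn.le
  have hAi : ∀ i, 1 - ((1 : ℚ) / p) ^ t i ≤ A i := fun i =>
    ep_sum_ge hHidx (N i) (y i) hG hTpos
  have hAm : A m = 1 := by
    have : Ep m = n := by
      simp only [hEp, hndef]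
      rw [Finset.sum_congr rfl (g := fun _ => (1 : ℚ))]
      · simp
      · intro s hs
        have hs' : s ∉ H := by simpa [hT] using hs
        have : s ∉ cz (N m) (y m) := fun h => hs' (hCH h)
        rw [ep_one this]
        simp
    simp only [hA]
    rw [this]
    exact div_self hn.ne'
  have hx0 : (0 : ℚ) < 1 / p := by
    have : (0 : ℚ) < p := by exact_mod_cast hp.out.pos
    positivity
  have hx2 : (1 : ℚ) / p ≤ 1 / 2 := by
    have : (2 : ℚ) ≤ p := by exact_mod_cast hp.out.two_le
    exact one_div_le_one_div_of_le (by norm_num) this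
  have hR0 : R 0 ≤ b := by
    simp only [hR, hS]
    rw [div_le_iff₀ hn]
    have h1 : ∑ s ∈ T, (lx p (cz (N 0) s) : ℚ) ≤ ∑ s ∈ T, (b : ℚ) := by
      refine Finset.sum_le_sum fun s _ => ?_
      have h2 : cz (N 0) s = Subgroup.centralizer ({s} : Set G) := by
        ext g
        rw [mem_cz, hN0, Subgroup.mem_bot, Subgroup.mem_centralizer_singleton_iff,
          commutatorElement_eq_one_iff_mul_comm]
        exact eq_comm
      have h3 := hb s
      rw [← h2, index_eq_pow_lx hG] at h3
      have h4 := (Nat.pow_le_pow_iff_right hp1).mp h3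
      exact_mod_cast h4
    rw [Finset.sum_const, nsmul_eq_mul] at h1
    rw [mul_comm]
    exact h1
  have hRnn : 0 ≤ R (m + 1) := by
    simp only [hR, hS]
    apply div_nonneg _ hn.le
    exact Finset.sum_nonneg fun s _ => by positivity
  have hlp := lp_bound hx0 hx2 m t R
    (fun i hi => by linarith [hdiv1 i, hAi i])
    (fun i hi => by linarith [hdiv2 i hi.le, hAi i])
    (by linarith [hdiv1 m, hAm]) (by linarith [hdiv2 m le_rfl, hAm]) hRnn b hR0
  -- the cardinality
  have hfin : ∀ k, Nat.card (N k) ≤ p ^ ∑ i ∈ Finset.range k, t i := by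
    intro k
    induction k with
    | zero =>
      rw [hN0]
      simp
    | succ k ih =>
      refine (hcard k).trans ?_
      rw [Finset.sum_range_succ, pow_add, index_eq_pow_lx hG]
      exact Nat.mul_le_mul_right _ ih
  exact (hfin (m + 1)).trans (Nat.pow_le_pow_right hp.out.pos hlp)

/-- The cardinality step. -/
lemma card_step [Finite G] {P Q : Subgroup G} [hP : P.Normal] [hQ : Q.Normal] (y : G)
    (hyP : ∀ g, ⁅y, g⁆ ∈ P)
    (hQy : ∀ a ∈ Q, ∃ c ∈ P, ∃ k : ℕ, a = c * y ^ k) :
    Nat.card (⁅Q, (⊤ : Subgroup G)⁆ : Subgroup G)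
      ≤ Nat.card (⁅P, (⊤ : Subgroup G)⁆ : Subgroup G) * (cz ⁅P, (⊤ : Subgroup G)⁆ y).index := by
  classical
  set N : Subgroup G := ⁅P, (⊤ : Subgroup G)⁆ with hN
  have hNn : N.Normal := inferInstance
  -- conjugation is trivial on `P` modulo `N`
  have hcomm : ∀ c ∈ P, ∀ g : G, ⁅c, g⁆ ∈ N := fun c hc g =>
    Subgroup.commutator_mem_commutator hc (Subgroup.mem_top g)
  have hconj : ∀ c ∈ P, ∀ g : G, ((g * c * g⁻¹ : G) : G ⧸ N) = ((c : G) : G ⧸ N) := by
    intro c hc g
    rw [QuotientGroup.eq]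
    have h1 : (g * c * g⁻¹)⁻¹ * c = ⁅c⁻¹, g⁆⁻¹ := by
      simp only [commutatorElement_def]; group
    rw [h1]
    exact N.inv_mem (hcomm _ (P.inv_mem hc) g)
  let φ : G →* G ⧸ N :=
    { toFun := fun g => ((⁅y, g⁆ : G) : G ⧸ N)
      map_one' := by simp
      map_mul' := by
        intro a b
        rw [comm_mul_right', QuotientGroup.mk_mul, hconj _ (hyP b)] }
  have hφ : ∀ g, φ g = ((⁅y, g⁆ : G) : G ⧸ N) := fun _ => rfl
  have hker : φ.ker = cz N y := by
    ext g
    rw [MonoidHom.mem_ker, hφ, QuotientGroup.eq_one_iff, mem_cz]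
  -- powers
  have hpow : ∀ (k : ℕ) (g : G), ⁅y ^ k, g⁆ ∈ P ∧ ((⁅y ^ k, g⁆ : G) : G ⧸ N) = φ g ^ k := by
    intro k g
    induction k with
    | zero => simp [P.one_mem]
    | succ k ih =>
      obtain ⟨h1, h2⟩ := ih
      rw [pow_succ, comm_mul_left']
      constructor
      · exact P.mul_mem (hP.conj_mem _ (hyP g) _) h1
      · rw [QuotientGroup.mk_mul, hconj _ (hyP g), h2, ← hφ, pow_succ']
  have hmem : ∀ a ∈ Q, ∀ g : G, ((⁅a, g⁆ : G) : G ⧸ N) ∈ φ.range := by
    intro a ha g
    obtain ⟨c, hc, k, rfl⟩ := hQy a ha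
    rw [comm_mul_left', QuotientGroup.mk_mul, hconj _ (hpow k g).1]
    have h1 : ((⁅c, g⁆ : G) : G ⧸ N) = 1 := by
      rw [QuotientGroup.eq_one_iff]
      exact hcomm c hc g
    rw [h1, mul_one, (hpow k g).2]
    exact φ.range.pow_mem (MonoidHom.mem_range.mpr ⟨g, rfl⟩) k
  have hle : (⁅Q, (⊤ : Subgroup G)⁆ : Subgroup G) ≤ φ.range.comap (QuotientGroup.mk' N) := by
    rw [Subgroup.commutator_le]
    intro a ha g _
    exact hmem a ha g
  -- counting
  set W : Subgroup G := ⁅Q, (⊤ : Subgroup G)⁆ with hW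
  let ψ : W →* G ⧸ N := (QuotientGroup.mk' N).comp W.subtype
  have h1 : Nat.card W = Nat.card ψ.ker * Nat.card ψ.range := by
    rw [← Subgroup.index_ker, Subgroup.card_mul_index]
  have h2 : Nat.card ψ.ker ≤ Nat.card N := by
    let f : ψ.ker → N := fun a => ⟨a.1.1, by
      have := a.2
      rw [MonoidHom.mem_ker] at this
      exact (QuotientGroup.eq_one_iff _).mp this⟩
    refine Nat.card_le_card_of_injective f ?_
    intro a b hab
    have : a.1.1 = b.1.1 := congrArg (fun z : N => (z : G)) hab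
    exact Subtype.ext (Subtype.ext this)
  have h3 : Nat.card ψ.range ≤ Nat.card φ.range := by
    apply Subgroup.card_le_of_le
    rintro _ ⟨a, rfl⟩
    exact hle a.2
  have h4 : Nat.card φ.range = (cz N y).index := by
    rw [← Subgroup.index_ker, hker]
  rw [h1, ← h4]
  exact Nat.mul_le_mul h2 h3

/-- Chains with central cyclic factors. -/
theorem exists_chain [Finite G] {p : ℕ} [hp : Fact p.Prime] (hG : IsPGroup p G) :
    ∀ (n : ℕ) (P : Subgroup G) [P.Normal], P.index = n →
    ∃ (Q : ℕ → Subgroup G) (y : ℕ → G) (r : ℕ), Q 0 = P ∧ (∀ i, (Q i).Normal) ∧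
      (∀ i, Q i ≤ Q (i + 1)) ∧ Q r = ⊤ ∧ (∀ i g, ⁅y i, g⁆ ∈ Q i) ∧ (∀ i, y i ∈ Q (i + 1)) ∧
      (∀ i, ∀ a ∈ Q (i + 1), ∃ c ∈ Q i, ∃ k : ℕ, a = c * y i ^ k) := by
  intro n
  induction n using Nat.strong_induction_on with
  | _ n ih =>
    intro P hPn hPidx
    by_cases htop : P = ⊤
    · refine ⟨fun _ => ⊤, fun _ => 1, 0, htop.symm, fun _ => inferInstance, fun _ => le_rfl, rfl,
        fun _ _ => Subgroup.mem_top _, fun _ => Subgroup.mem_top _, ?_⟩
      intro i a _
      exact ⟨a, Subgroup.mem_top _, 0, by simp⟩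
    · have hq : IsPGroup p (G ⧸ P) := hG.to_quotient P
      haveI hnt : Nontrivial (G ⧸ P) := by
        rw [QuotientGroup.nontrivial_iff]
        exact htop
      haveI := hq.center_nontrivial
      obtain ⟨c, hc1⟩ := exists_ne (1 : Subgroup.center (G ⧸ P))
      obtain ⟨y, hy⟩ := QuotientGroup.mk_surjective (c : G ⧸ P)
      have hcc : ∀ g : G ⧸ P, g * (c : G ⧸ P) = (c : G ⧸ P) * g := fun g =>
        (Subgroup.mem_center_iff.mp c.2 g)
      have hc1' : (c : G ⧸ P) ≠ 1 := fun h => hc1 (Subtype.ext h)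
      set Z : Subgroup (G ⧸ P) := Subgroup.zpowers (c : G ⧸ P) with hZ
      have hZn : Z.Normal := by
        have hZc : Z ≤ Subgroup.center (G ⧸ P) := by
          rw [hZ, Subgroup.zpowers_le]
          exact c.2
        refine ⟨fun a ha g => ?_⟩
        rw [Subgroup.mem_center_iff.mp (hZc ha) g]
        simpa using ha
      set Q₁ : Subgroup G := Z.comap (QuotientGroup.mk' P) with hQ₁
      have hQ₁n : Q₁.Normal := hZn.comap _
      have hyQ : y ∈ Q₁ := by
        show ((y : G) : G ⧸ P) ∈ Z
        rw [hy]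
        exact Subgroup.mem_zpowers _
      have hPQ : P ≤ Q₁ := by
        intro a ha
        show ((a : G) : G ⧸ P) ∈ Z
        rw [(QuotientGroup.eq_one_iff a).mpr ha]
        exact Z.one_mem
      have hyP : y ∉ P := by
        intro h
        apply hc1'
        rw [← hy]
        exact (QuotientGroup.eq_one_iff y).mpr h
      have hlt : Q₁.index < n := by
        have h1 : P.relIndex Q₁ * Q₁.index = P.index := Subgroup.relIndex_mul_index hPQ
        have h2 : P.relIndex Q₁ ≠ 1 := by
          intro h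
          rw [Subgroup.relIndex_eq_one] at h
          exact hyP (h hyQ)
        have h3 : P.relIndex Q₁ ≠ 0 := (relIndex_pos' _ _).ne'
        have h4 : 0 < Q₁.index := Nat.pos_of_ne_zero Subgroup.FiniteIndex.index_ne_zero
        rw [← hPidx, ← h1]
        have h5 : 2 ≤ P.relIndex Q₁ := by omega
        nlinarith
      obtain ⟨Q', y', r', h0, hnorm, hmono, htop', hcomm, hmem, hcov⟩ := ih _ hlt Q₁ rfl
      refine ⟨fun i => Nat.casesOn i P Q', fun i => Nat.casesOn i y y', r' + 1, rfl, ?_, ?_,
        htop', ?_, ?_, ?_⟩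
      · intro i
        cases i with
        | zero => exact hPn
        | succ i => exact hnorm i
      · intro i
        cases i with
        | zero =>
          show P ≤ Q' 0
          rw [h0]
          exact hPQ
        | succ i => exact hmono i
      · intro i g
        cases i with
        | zero =>
          show ⁅y, g⁆ ∈ P
          rw [← QuotientGroup.eq_one_iff, commutatorElement_def]
          simp only [QuotientGroup.mk_mul, QuotientGroup.mk_inv, hy]
          rw [← hcc]
          simp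
        | succ i => exact hcomm i g
      · intro i
        cases i with
        | zero =>
          show y ∈ Q' 0
          rw [h0]
          exact hyQ
        | succ i => exact hmem i
      · intro i a ha
        cases i with
        | zero =>
          have ha' : a ∈ Q₁ := by
            have : a ∈ Q' 0 := ha
            rwa [h0] at this
          have ha2 : ((a : G) : G ⧸ P) ∈ Z := ha'
          have hfo : IsOfFinOrder (c : G ⧸ P) := isOfFinOrder_of_finite _
          obtain ⟨k, hk⟩ : ∃ k : ℕ, (c : G ⧸ P) ^ k = ((a : G) : G ⧸ P) := by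
            rw [hZ, ← hfo.mem_powers_iff_mem_zpowers] at ha2
            exact ha2
          refine ⟨a * (y ^ k)⁻¹, ?_, k, (inv_mul_cancel_right a (y ^ k)).symm⟩
          show a * (y ^ k)⁻¹ ∈ P
          rw [← QuotientGroup.eq_one_iff, QuotientGroup.mk_mul, QuotientGroup.mk_inv,
            QuotientGroup.mk_pow, hy, hk]
          simp
        | succ i => exact hcov i a ha

/-- **Vaughan-Lee's theorem** -/
theorem card_commutator_le [Finite G] {p : ℕ} [hp : Fact p.Prime] (hG : IsPGroup p G) (b : ℕ)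
    (hb : ∀ x : G, (Subgroup.centralizer ({x} : Set G)).index ≤ p ^ b) :
    Nat.card (commutator G) ≤ p ^ (b * (b + 1) / 2) := by
  rw [← tr_eq]
  obtain ⟨Q, y, r, h0, hnorm, hmono, htop, hcomm, hmem, hcov⟩ :=
    exists_chain hG _ (⊥ : Subgroup G) rfl
  haveI := hnorm
  let N : ℕ → Subgroup G := fun i => ⁅Q i, (⊤ : Subgroup G)⁆
  have hNn : ∀ i, (N i).Normal := fun i => inferInstance
  have hN0 : N 0 = ⊥ := by
    show ⁅Q 0, (⊤ : Subgroup G)⁆ = ⊥
    rw [h0, Subgroup.commutator_bot_left]
  have hNm : ∀ i, N i ≤ N (i + 1) := fun i =>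
    Subgroup.commutator_mono (hmono i) le_rfl
  have hy : ∀ i g, ⁅y i, g⁆ ∈ N (i + 1) := fun i g =>
    Subgroup.commutator_mem_commutator (hmem i) (Subgroup.mem_top g)
  have hcard : ∀ i, Nat.card (N (i + 1)) ≤ Nat.card (N i) * (cz (N i) (y i)).index := fun i =>
    card_step (y i) (hcomm i) (hcov i)
  have hall : ∀ k, Nat.card (N k) ≤ p ^ tr b := by
    intro k
    induction k with
    | zero =>
      rw [hN0]
      simpa using Nat.one_le_pow _ _ hp.out.pos
    | succ k ih =>
      by_cases hk : cz (N k) (y k) = ⊤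
      · have := hcard k
        rw [hk, Subgroup.index_top, mul_one] at this
        exact this.trans ih
      · exact main_bound hG b hb N y hN0 hNm hy hcard k hk
  have := hall r
  have hNr : N r = commutator G := by
    show ⁅Q r, (⊤ : Subgroup G)⁆ = commutator G
    rw [htop, commutator_def]
  rwa [hNr] at this

end Cfsg.Agent.Lib.PGroup.VaughanLee
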